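import Cfsg.Agent.H4.SLThree.SingerSpec
import Cfsg.Agent.H6.Applications

/-!
Two pieces for the maximality of the normaliser of a cubic field in `SL₃`: the order of a
subgroup of `GL₂` prime to the characteristic, and the resulting numerical contradiction.
-/

set_option autoImplicit false

open Matrix MatrixGroups

namespace Cfsg.Agent.H6.SingerBound

open Cfsg.Agent.H6
open Cfsg.Agent.H4.SLThree.Singer (SmallSize BoundPiece ArithPiece)

/-- The size of a `p'`-subgroup of `PSL₂(q)`, `q` odd. -/
theorem smallSize_psl {F : Type*} [Field F] [Fintype F] (p : ℕ) [Fact p.Prime] [CharP F p]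
    (hodd : Odd (Fintype.card F)) (H : Subgroup PSL(2, F))
    (hH : (Nat.card H).Coprime (Fintype.card F)) : SmallSize (Fintype.card F) (Nat.card H) := by
  classical
  obtain ⟨c, hc⟩ := exists_outcome p H
  rw [← card_cj c] at hH ⊢
  generalize cj c H = K at hc hH ⊢
  have hgcd : Nat.gcd 2 (Fintype.card F - 1) = 2 :=
    Nat.gcd_eq_left (by obtain ⟨u, hu⟩ := hodd; omega)
  cases hc with
  | triv h => exact Or.inl (by rw [h]; exact one_dvd _)
  | dih h =>
    obtain ⟨g, ht, hle⟩ := h
    have h1 := Subgroup.card_dvd_of_le hle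
    have h2 := card_tor_mul (rfl : Fintype.card F = _) g
    rw [hgcd, mul_comm, ← card_torDih ht] at h2
    rw [h2] at h1
    rcases card_cent_ss ht with ⟨-, e⟩ | ⟨-, e⟩ <;> rw [e] at h1
    · exact Or.inl h1
    · exact Or.inr (Or.inl h1)
  | bor h =>
    obtain ⟨d, hd⟩ := h
    have h1 := (Subgroup.card_dvd_of_le hd).mul_right (Nat.gcd 2 (Fintype.card F - 1))
    rw [card_borel_mul rfl, card_cj] at h1
    exact Or.inl (hH.dvd_of_dvd_mul_left h1)
  | a4 h _ => exact Or.inr (Or.inr (Or.inl h))
  | s4 h _ _ => exact Or.inr (Or.inr (Or.inr (Or.inl h)))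
  | a5 h _ _ => exact Or.inr (Or.inr (Or.inr (Or.inr h)))
  | gen h =>
    exfalso
    obtain ⟨r, k, -, hm, -, hk, hr, -⟩ := h
    have hrH : r ∣ Nat.card K := hm ▸ Subgroup.card_dvd_of_le inf_le_right
    have hrU : r ∣ Nat.card (Uinf F) := hm ▸ Subgroup.card_dvd_of_le inf_le_left
    rw [card_Uinf] at hrU
    have := Nat.dvd_one.1 (hH ▸ Nat.dvd_gcd hrH hrU)
    omega

/-- The order of a `p'`-subgroup of `GL₂(q)` containing `-1`. -/
theorem boundPiece {F : Type*} [Field F] [Fintype F] : BoundPiece (F := F) := by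
  intro hodd G hG hneg
  classical
  obtain ⟨p, hp⟩ := CharP.exists F
  have : Fact p.Prime := ⟨CharP.char_is_prime F p⟩
  let S : Subgroup SL(2, F) := G.comap SpecialLinearGroup.toGL
  have hcS : Subgroup.center SL(2, F) ≤ S := by
    intro g hg
    rcases mem_center_sl2.1 hg with rfl | rfl
    · exact one_mem _
    · have : SpecialLinearGroup.toGL (-1 : SL(2, F)) = (-1 : GL (Fin 2) F) := Units.ext (by simp)
      exact show _ ∈ G from this ▸ hneg
  let d : G →* Fˣ := GeneralLinearGroup.det.comp G.subtype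
  have hk : Nat.card d.ker = Nat.card S :=
    Nat.card_congr
      { toFun := fun g => ⟨⟨((g.1 : GL (Fin 2) F) : Matrix (Fin 2) (Fin 2) F), by
            have := congrArg Units.val (MonoidHom.mem_ker.1 g.2); simpa [d] using this⟩, by
            show SpecialLinearGroup.toGL _ ∈ G
            convert g.1.2 using 1; exact Units.ext rfl⟩
        invFun := fun s => ⟨⟨SpecialLinearGroup.toGL s.1, s.2⟩, by
            rw [MonoidHom.mem_ker]; exact Units.ext (by simp [d])⟩
        left_inv := fun g => by ext; rfl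
        right_inv := fun s => by ext; rfl }
  have hGc : Nat.card G = Nat.card d.range * Nat.card S := by
    rw [← hk, Subgroup.card_eq_card_quotient_mul_card_subgroup d.ker,
      Nat.card_congr (QuotientGroup.quotientKerEquivRange d).toEquiv]
  have h2 : Nat.card (Subgroup.center SL(2, F)) = 2 := by
    rw [card_center_sl2 rfl]
    exact Nat.gcd_eq_left (by obtain ⟨u, hu⟩ := hodd; omega)
  have hS : Nat.card S = Nat.card (S.map π) * 2 :=
    (card_map_π hcS).symm.trans (congrArg (_ * ·) h2)
  refine ⟨Nat.card (S.map π), Nat.card d.range, by rw [hGc, hS]; ring, ?_,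
    smallSize_psl p hodd _ (hG.coprime_dvd_left ?_)⟩
  · have h1 := Subgroup.card_subgroup_dvd_card d.range
    rwa [Nat.card_units, Nat.card_eq_fintype_card (α := F)] at h1
  · exact ⟨Nat.card d.range * 2, by rw [hGc, hS]; ring⟩

/-- The finite check. -/
lemma arith_finite : ∀ q ∈ List.range 80, q % 2 = 1 → q % 3 = 1 → ∀ δ ∈ List.range q, (q - 1) % δ = 0 →
    ∀ t ∈ [24, 48, 96, 120, 240], t * δ % (3 * (q ^ 2 + q + 1)) = 9 → q = 1 := by
  decide +kernel

/-- The numerical contradiction. -/
theorem arith (q j e s δ : ℕ) (hodd : Odd q) (hq3 : q % 3 = 1) (hq : 1 < q) (hj : 1 ≤ j)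
    (he : e = 1 ∨ e = 2) (hδ : δ ∣ q - 1) (hs : SmallSize q s) :
    e * (2 * s * δ) ≠ 3 * (3 + j * (q ^ 2 + q + 1)) := by
  intro heq
  have hq1 : q % 2 = 1 := Nat.odd_iff.1 hodd
  have hbig : 3 * (q ^ 2 + q + 4) ≤ e * (2 * s * δ) := by
    rw [heq]
    have : 1 * (q ^ 2 + q + 1) ≤ j * (q ^ 2 + q + 1) := Nat.mul_le_mul_right _ hj
    omega
  have h7 : 7 ≤ q := by omega
  obtain ⟨u, hu⟩ : ∃ u, q = u + 1 := ⟨q - 1, by omega⟩
  have hj' : j = 1 ∨ 2 * (q ^ 2 + q + 1) ≤ j * (q ^ 2 + q + 1) := by
    rcases Nat.lt_or_ge j 2 with h | h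
    · left; omega
    · exact Or.inr (Nat.mul_le_mul_right _ h)
  have key : ∀ a, s ∣ a → (a = q - 1 ∨ a = q + 1) → False := by
    intro a ha hor
    have h1 : e * (2 * s * δ) ∣ 4 * a * (q - 1) := by
      have h2 : e ∣ 2 := by rcases he with rfl | rfl <;> decide
      calc e * (2 * s * δ) = e * 2 * s * δ := by ring
        _ ∣ 2 * 2 * a * (q - 1) :=
          Nat.mul_dvd_mul (Nat.mul_dvd_mul (Nat.mul_dvd_mul_right h2 2) ha) hδ
    obtain ⟨m, hm⟩ := h1
    have hqm : q - 1 = u := by omega
    rw [hqm] at hm hor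
    subst hu
    clear ha hs hδ hqm
    rcases Nat.lt_trichotomy m 1 with hm0 | hm0 | hm0
    · have : m = 0 := by omega
      subst this
      rcases hor with e' | e' <;> subst e' <;> nlinarith
    · subst hm0
      rw [mul_one, heq] at hm
      rcases hor with e' | e' <;> rw [e'] at hm <;> rcases hj' with h | h
      · subst h
        rcases Nat.lt_or_ge u 12 with hu' | hu'
        · interval_cases u <;> omega
        · nlinarith
      · nlinarith
      · subst h
        rcases Nat.lt_or_ge u 12 with hu' | hu'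
        · interval_cases u <;> omega
        · nlinarith
      · nlinarith
    · have h2 : e * (2 * s * δ) * 2 ≤ 4 * a * u := by rw [hm]; exact Nat.mul_le_mul_left _ hm0
      rcases hor with e' | e' <;> rw [e'] at h2 <;> nlinarith
  have small : s ≤ 60 → s ∈ [12, 24, 60] → False := by
    intro hs60 hmem
    have hδq : δ ≤ q - 1 := Nat.le_of_dvd (by omega) hδ
    have he2 : e ≤ 2 := by omega
    have hb : e * (2 * s * δ) ≤ 2 * (2 * 60 * (q - 1)) :=
      Nat.mul_le_mul he2 (Nat.mul_le_mul (Nat.mul_le_mul_left 2 hs60) hδq)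
    have hq80 : q < 80 := by
      by_contra h
      have : 80 * q ≤ q * q := Nat.mul_le_mul_right q (by omega)
      have : q * q = q ^ 2 := (sq q).symm
      omega
    have hmod : e * (2 * s * δ) % (3 * (q ^ 2 + q + 1)) = 9 := by
      rw [heq, show 3 * (3 + j * (q ^ 2 + q + 1)) = 9 + 3 * (q ^ 2 + q + 1) * j by ring,
        Nat.add_mul_mod_self_left, Nat.mod_eq_of_lt (by nlinarith)]
    have := arith_finite q (List.mem_range.2 hq80) hq1 hq3 δ (List.mem_range.2 (by omega))
      (Nat.mod_eq_zero_of_dvd hδ) (e * 2 * s) (by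
      simp only [List.mem_cons, List.not_mem_nil, or_false] at hmem ⊢
      rcases he with rfl | rfl <;> rcases hmem with rfl | rfl | rfl <;> norm_num)
      (by rw [← hmod]; congr 1; ring)
    omega
  rcases hs with h | h | rfl | rfl | rfl
  · exact key _ h (Or.inl rfl)
  · exact key _ h (Or.inr rfl)
  all_goals exact small (by norm_num) (by simp)

end Cfsg.Agent.H6.SingerBound
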