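import Cfsg.Agent.H4.SLThree.SingerSpec

/-!
Gleason's lemma for a projective plane: a subgroup of `GL₃` transitive on points with elations of two centres
on every line contains every elation, hence `SL₃`.
-/

set_option autoImplicit false

namespace Cfsg.Agent.H6.SingerGleason

open Cfsg.Agent.H4.SLThree.Singer
open scoped Matrix

variable {F : Type*} [Field F]

local notation "VV" => Fin 3 → F

theorem transGL_zero (φ : VV →ₗ[F] F) (h : φ 0 = 0) : H98.transGL φ (0 : VV) h = 1 :=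
  H98.gl_ext fun v => by rw [H98.transGL_mulVec, smul_zero, add_zero, Units.val_one, Matrix.one_mulVec]

theorem transGL_add (φ : VV →ₗ[F] F) {a b : VV} (ha : φ a = 0) (hb : φ b = 0) :
    H98.transGL φ a ha * H98.transGL φ b hb = H98.transGL φ (a + b) (by rw [map_add, ha, hb, add_zero]) :=
  H98.gl_ext fun v => by
    simp only [Units.val_mul, ← Matrix.mulVec_mulVec, H98.transGL_mulVec, map_add, map_smul, hb, smul_eq_mul,
      mul_zero, add_zero, smul_add]
    abel

theorem hasEl_congr {M : Subgroup (GL (Fin 3) F)} {φ ψ : VV →ₗ[F] F} {a b : VV} (h : HasEl M φ a)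
    (hb : ψ b = 0) (he : ∀ x, φ x • a = ψ x • b) : HasEl M ψ b := by
  obtain ⟨ha, hM⟩ := h
  refine ⟨hb, ?_⟩
  rwa [show H98.transGL ψ b hb = H98.transGL φ a ha from
    H98.gl_ext fun x => by rw [H98.transGL_mulVec, H98.transGL_mulVec, he]]

theorem hasEl_conj {M : Subgroup (GL (Fin 3) F)} {φ : VV →ₗ[F] F} {a : VV} {g : GL (Fin 3) F} (hg : g ∈ M)
    (h : HasEl M φ a) :
    HasEl M (φ.comp (Matrix.mulVecLin ((g⁻¹ : GL (Fin 3) F) : Matrix (Fin 3) (Fin 3) F)))
      ((g : Matrix (Fin 3) (Fin 3) F) *ᵥ a) := by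
  obtain ⟨ha, hM⟩ := h
  refine ⟨by simpa [H98.gl_inv_mulVec] using ha, ?_⟩
  rw [← H98.conj_transGL g φ a ha]
  exact M.mul_mem (M.mul_mem hg hM) (M.inv_mem hg)

/-- The centres of the elations in `M` with axis `φ`. -/
def centres (M : Subgroup (GL (Fin 3) F)) (φ : VV →ₗ[F] F) : AddSubgroup VV where
  carrier := {v | HasEl M φ v}
  zero_mem' := ⟨map_zero φ, by rw [transGL_zero]; exact M.one_mem⟩
  add_mem' := by
    rintro a b ⟨ha, hMa⟩ ⟨hb, hMb⟩
    exact ⟨by rw [map_add, ha, hb, add_zero], (transGL_add φ ha hb) ▸ M.mul_mem hMa hMb⟩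
  neg_mem' := by
    rintro a ⟨ha, hMa⟩
    have hn : φ (-a) = 0 := by rw [map_neg, ha, neg_zero]
    refine ⟨hn, ?_⟩
    have e : H98.transGL φ (-a) hn = (H98.transGL φ a ha)⁻¹ := eq_inv_of_mul_eq_one_left <| by
      rw [transGL_add φ hn ha]
      exact H98.gl_ext fun v => by
        rw [H98.transGL_mulVec, neg_add_cancel, smul_zero, add_zero, Units.val_one, Matrix.one_mulVec]
    rw [e]
    exact M.inv_mem hMa

/-- The multiples of `a` that are centres of elations in `M` with axis `φ`. -/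
def scalars (M : Subgroup (GL (Fin 3) F)) (φ : VV →ₗ[F] F) (a : VV) : AddSubgroup F :=
  (centres M φ).comap ((LinearMap.id : F →ₗ[F] F).smulRight a).toAddMonoidHom

theorem mem_scalars {M : Subgroup (GL (Fin 3) F)} {φ : VV →ₗ[F] F} {a : VV} {x : F} :
    x ∈ scalars M φ a ↔ HasEl M φ (x • a) := Iff.rfl

theorem mem_span_pair {φ : VV →ₗ[F] F} (hφ : φ ≠ 0) {a b : VV} (ha : φ a = 0) (hb : φ b = 0)
    (hab : LinearIndependent F ![a, b]) {x : VV} (hx : φ x = 0) : x ∈ Submodule.span F (Set.range ![a, b]) := by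
  have hle : Submodule.span F (Set.range ![a, b]) ≤ LinearMap.ker φ := by
    rw [Submodule.span_le]
    rintro _ ⟨i, rfl⟩
    fin_cases i <;> simpa using by assumption
  have hr : LinearMap.range φ = ⊤ := LinearMap.range_eq_top.2 (LinearMap.surjective hφ)
  have h3 := φ.finrank_range_add_finrank_ker
  rw [hr, finrank_top, Module.finrank_self, Module.finrank_fin_fun] at h3
  have h2 : Module.finrank F (Submodule.span F (Set.range ![a, b])) = 2 := by
    rw [finrank_span_eq_card hab, Fintype.card_fin]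
  rw [Submodule.eq_of_le_of_finrank_eq hle (by omega)]
  exact hx

variable [Fintype F]

theorem flag_transitive (M : Subgroup (GL (Fin 3) F)) (h2 : TwoCentres M) (a : VV) (ha : a ≠ 0)
    (φ₀ φ : VV →ₗ[F] F) (hφ₀ : φ₀ ≠ 0) (h₀ : φ₀ a = 0) (hφ : φ ≠ 0) (hφa : φ a = 0) :
    ∃ g ∈ M, ∃ c d : F, d ≠ 0 ∧ (g : Matrix (Fin 3) (Fin 3) F) *ᵥ a = c • a ∧
      φ = d • φ₀.comp (Matrix.mulVecLin ((g⁻¹ : GL (Fin 3) F) : Matrix (Fin 3) (Fin 3) F)) := by
  classical
  let O : Set (VV →ₗ[F] F) := {ψ | ψ ≠ 0 ∧ ψ a = 0 ∧ ∃ g ∈ M, ∃ c d : F, d ≠ 0 ∧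
    (g : Matrix (Fin 3) (Fin 3) F) *ᵥ a = c • a ∧
      ψ = d • φ₀.comp (Matrix.mulVecLin ((g⁻¹ : GL (Fin 3) F) : Matrix (Fin 3) (Fin 3) F))}
  haveI : Finite (VV →ₗ[F] F) := Finite.of_injective _ DFunLike.coe_injective
  obtain ⟨p, hp⟩ := CharP.exists F
  haveI hpp : Fact p.Prime := ⟨CharP.char_is_prime F p⟩
  have h₀O : φ₀ ∈ O := ⟨hφ₀, h₀, 1, M.one_mem, 1, 1, one_ne_zero, by simp, by ext x; simp⟩
  have hscal : ∀ ψ ∈ O, ∀ e : F, e ≠ 0 → e • ψ ∈ O := by
    rintro ψ ⟨hψ, hψa, g, hg, c, d, hd, hga, rfl⟩ e he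
    exact ⟨smul_ne_zero he hψ, by rw [LinearMap.smul_apply, hψa, smul_zero], g, hg, c, e * d,
      mul_ne_zero he hd, hga, by rw [smul_smul]⟩
  have key : ∀ ψ : VV →ₗ[F] F, ψ ≠ 0 → ψ a = 0 →
      Nat.card O ≡ Nat.card {η : VV →ₗ[F] F // η ∈ O ∧ ∃ e : F, η = e • ψ} [MOD p] := by
    intro ψ hψ hψa
    obtain ⟨b, hb, hab⟩ : ∃ b, HasEl M ψ b ∧ LinearIndependent F ![a, b] := by
      obtain ⟨u, v, huv, hu, hv⟩ := h2 ψ hψ
      by_contra hno
      push Not at hno
      have h1 := hno u hu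
      have h1' := hno v hv
      simp only [LinearIndependent.pair_iff' ha, not_forall, not_not] at h1 h1'
      obtain ⟨s, rfl⟩ := h1
      obtain ⟨t, rfl⟩ := h1'
      rw [LinearIndependent.pair_iff] at huv
      rcases eq_or_ne s 0 with rfl | hs
      · exact one_ne_zero (huv 1 0 (by simp)).1
      · exact hs (neg_eq_zero.1 (huv t (-s) (by rw [smul_smul, smul_smul, ← add_smul]; ring_nf; simp)).2)
    obtain ⟨hb0, hbM⟩ := hb
    set τ := H98.transGL ψ b hb0 with hτ
    have hτa : (τ : Matrix (Fin 3) (Fin 3) F) *ᵥ a = a := by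
      rw [hτ, H98.transGL_mulVec, hψa, zero_smul, add_zero]
    have hτinv : ∀ x, ((τ⁻¹ : GL (Fin 3) F) : Matrix (Fin 3) (Fin 3) F) *ᵥ x = x - ψ x • b := by
      intro x
      apply H98.gl_mulVec_injective τ
      show (τ : Matrix (Fin 3) (Fin 3) F) *ᵥ _ = (τ : Matrix (Fin 3) (Fin 3) F) *ᵥ _
      rw [H98.gl_mulVec_inv, hτ, H98.transGL_mulVec, map_sub, map_smul, hb0, smul_zero, sub_zero,
        sub_add_cancel]
    have hmove : ∀ η ∈ O, η - η b • ψ ∈ O := by
      rintro η ⟨hη, hηa, g, hg, c, d, hd, hga, he⟩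
      have hcomp : η - η b • ψ =
          η.comp (Matrix.mulVecLin ((τ⁻¹ : GL (Fin 3) F) : Matrix (Fin 3) (Fin 3) F)) :=
        LinearMap.ext fun x => by
          rw [LinearMap.sub_apply, LinearMap.smul_apply, LinearMap.comp_apply, Matrix.mulVecLin_apply,
            hτinv, map_sub, map_smul, smul_eq_mul, smul_eq_mul, mul_comm]
      refine ⟨?_, by rw [LinearMap.sub_apply, LinearMap.smul_apply, hηa, hψa, smul_zero, sub_zero],
        τ * g, M.mul_mem hbM hg, c, d, hd,
        by rw [Units.val_mul, ← Matrix.mulVec_mulVec, hga, Matrix.mulVec_smul, hτa], ?_⟩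
      · intro h
        apply hη
        rw [hcomp] at h
        refine LinearMap.ext fun x => ?_
        have := LinearMap.congr_fun h ((τ : Matrix (Fin 3) (Fin 3) F) *ᵥ x)
        rwa [LinearMap.comp_apply, Matrix.mulVecLin_apply, H98.gl_inv_mulVec] at this
      · rw [hcomp, he]
        refine LinearMap.ext fun x => ?_
        simp only [LinearMap.comp_apply, LinearMap.smul_apply, Matrix.mulVecLin_apply, mul_inv_rev,
          Units.val_mul, ← Matrix.mulVec_mulVec]
    let f : O → O := fun η => ⟨_, hmove η.1 η.2⟩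
    have hiter : ∀ (k : ℕ) (η : O), ((f^[k]) η).1 = η.1 - (k : F) • (η.1 b • ψ) := by
      intro k
      induction k with
      | zero => intro η; simp
      | succ k ih =>
        intro η
        rw [Function.iterate_succ_apply']
        show (f^[k] η).1 - (f^[k] η).1 b • ψ = _
        rw [ih, LinearMap.sub_apply, LinearMap.smul_apply, LinearMap.smul_apply, hb0, smul_zero, smul_zero,
          sub_zero, Nat.cast_succ, add_smul, one_smul, sub_sub]
    have hfp : Function.RightInverse (f^[p - 1]) f ∧ Function.LeftInverse (f^[p - 1]) f := by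
      have hid : ∀ η, f^[p] η = η := fun η => Subtype.ext (by
        rw [hiter, CharP.cast_eq_zero F p, zero_smul, sub_zero])
      have hp1 : p - 1 + 1 = p := Nat.succ_pred_eq_of_pos hpp.out.pos
      constructor <;> intro η
      · rw [← Function.iterate_succ_apply' f, Nat.succ_eq_add_one, hp1, hid]
      · rw [← Function.iterate_succ_apply f, Nat.succ_eq_add_one, hp1, hid]
    let σ : Equiv.Perm O := ⟨f, f^[p - 1], hfp.2, hfp.1⟩
    have hσpow : ∀ k : ℕ, ∀ η, (σ ^ k) η = f^[k] η := by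
      intro k η; rw [Equiv.Perm.coe_pow]; rfl
    have hG : IsPGroup p (Subgroup.zpowers σ) := by
      intro x
      refine ⟨1, Subtype.ext ?_⟩
      obtain ⟨z, hz⟩ := Subgroup.mem_zpowers_iff.1 x.2
      have hσ : σ ^ (p : ℤ) = 1 := Equiv.ext fun η => Subtype.ext (by
        rw [zpow_natCast, hσpow, hiter, CharP.cast_eq_zero F p, zero_smul, sub_zero]; rfl)
      show (x : Equiv.Perm O) ^ p ^ 1 = 1
      rw [← hz, pow_one, ← zpow_natCast, ← zpow_mul, mul_comm, zpow_mul, hσ, one_zpow]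
    refine (hG.card_modEq_card_fixedPoints O).trans (congrArg (· % p) (?_ : _ = _))
    refine Nat.card_congr ⟨fun η => ⟨η.1.1, η.1.2, ?_⟩, fun η => ⟨⟨η.1, η.2.1⟩, ?_⟩, fun η => rfl, fun η => rfl⟩
    · have hfix : σ η.1 = η.1 := η.2 ⟨σ, Subgroup.mem_zpowers σ⟩
      have hzero : η.1.1 b = 0 := by
        have h := congrArg Subtype.val hfix
        change η.1.1 - η.1.1 b • ψ = η.1.1 at h
        rcases smul_eq_zero.1 (sub_eq_self.1 h) with h | h
        · exact h
        · exact absurd h hψ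
      obtain ⟨w, hw⟩ := LinearMap.surjective hψ 1
      refine ⟨η.1.1 w, LinearMap.ext fun x => ?_⟩
      have hx : x - ψ x • w ∈ Submodule.span F (Set.range ![a, b]) :=
        mem_span_pair hψ hψa hb0 hab (by rw [map_sub, map_smul, hw, smul_eq_mul, mul_one, sub_self])
      have : η.1.1 (x - ψ x • w) = 0 := by
        refine (Submodule.span_le.2 ?_ : _ ≤ LinearMap.ker η.1.1) hx
        rintro _ ⟨i, rfl⟩
        fin_cases i
        · exact η.1.2.2.1
        · exact hzero
      rw [map_sub, map_smul, sub_eq_zero] at this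
      rw [this, LinearMap.smul_apply, smul_eq_mul, smul_eq_mul, mul_comm]
    · obtain ⟨e, he⟩ := η.2.2
      have hfix : σ ⟨η.1, η.2.1⟩ = ⟨η.1, η.2.1⟩ := Subtype.ext (by
        show η.1 - η.1 b • ψ = η.1
        rw [he, LinearMap.smul_apply, hb0, smul_zero, zero_smul, sub_zero])
      intro x
      obtain ⟨z, hz⟩ := Subgroup.mem_zpowers_iff.1 x.2
      show (x : Equiv.Perm O) _ = _
      rw [← hz]
      exact Function.IsFixedPt.perm_zpow hfix z
  by_contra hno
  have hφO : φ ∉ O := fun h => hno h.2.2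
  have e0 : Nat.card {η : VV →ₗ[F] F // η ∈ O ∧ ∃ e : F, η = e • φ} = 0 := by
    haveI : IsEmpty {η : VV →ₗ[F] F // η ∈ O ∧ ∃ e : F, η = e • φ} := ⟨fun η => by
      obtain ⟨hη, e, he⟩ := η.2
      have hne : e ≠ 0 := fun h => hη.1 (by rw [he, h, zero_smul])
      exact hφO (by simpa [he, smul_smul, hne] using hscal _ hη e⁻¹ (inv_ne_zero hne))⟩
    exact Nat.card_of_isEmpty
  have e1 : Nat.card {η : VV →ₗ[F] F // η ∈ O ∧ ∃ e : F, η = e • φ₀} = Fintype.card F - 1 := by
    rw [← Fintype.card_units, ← Nat.card_eq_fintype_card]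
    refine (Nat.card_eq_of_bijective
      (fun u : Fˣ => (⟨(u : F) • φ₀, hscal _ h₀O _ u.ne_zero, _, rfl⟩ :
        {η : VV →ₗ[F] F // η ∈ O ∧ ∃ e : F, η = e • φ₀})) ⟨?_, ?_⟩).symm
    · intro u v huv
      exact Units.ext (smul_left_injective F hφ₀ (congrArg Subtype.val huv))
    · rintro ⟨η, hη, e, rfl⟩
      exact ⟨Units.mk0 e fun h => hη.1 (by rw [h, zero_smul]), rfl⟩
  have hc := (key φ₀ hφ₀ h₀).symm.trans (key φ hφ hφa)
  rw [e0, e1, Nat.modEq_zero_iff_dvd] at hc
  obtain ⟨n, -, hn⟩ := FiniteField.card F p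
  have hpq : p ∣ Fintype.card F := hn ▸ dvd_pow_self p n.pos.ne'
  have h1 : 1 ≤ Fintype.card F := Fintype.card_pos
  have hdv := Nat.dvd_sub hpq hc
  rw [Nat.sub_sub_self h1] at hdv
  exact hpp.out.one_lt.ne' (Nat.dvd_one.1 hdv)

/-- The number of admissible multiples of the centre is the same for every flag. -/
theorem card_scalars_eq (M : Subgroup (GL (Fin 3) F)) (hpt : PointTransitive M) (h2 : TwoCentres M)
    {φ ψ : VV →ₗ[F] F} {a b : VV} (hφ : φ ≠ 0) (hψ : ψ ≠ 0) (ha : a ≠ 0) (hb : b ≠ 0) (hφa : φ a = 0)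
    (hψb : ψ b = 0) : Nat.card (scalars M φ a) ≤ Nat.card (scalars M ψ b) := by
  obtain ⟨g, hg, c, hgc⟩ := hpt a b ha hb
  set φ' := φ.comp (Matrix.mulVecLin ((g⁻¹ : GL (Fin 3) F) : Matrix (Fin 3) (Fin 3) F)) with hφ'
  have hc0 : c ≠ 0 := by
    intro h
    rw [h, zero_smul] at hgc
    exact ha (H98.gl_mulVec_injective g (by simpa using hgc))
  have hφ'b : φ' b = 0 := by
    have h : φ' (c • b) = 0 := by
      rw [← hgc, hφ', LinearMap.comp_apply, Matrix.mulVecLin_apply, H98.gl_inv_mulVec, hφa]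
    rw [map_smul, smul_eq_mul] at h
    exact (mul_eq_zero.1 h).resolve_left hc0
  have hφ'0 : φ' ≠ 0 := by
    intro h
    refine hφ (LinearMap.ext fun x => ?_)
    have := LinearMap.congr_fun h ((g : Matrix (Fin 3) (Fin 3) F) *ᵥ x)
    rwa [hφ', LinearMap.comp_apply, Matrix.mulVecLin_apply, H98.gl_inv_mulVec] at this
  obtain ⟨g', hg', c', d, hd, hg'b, hψe⟩ := flag_transitive M h2 b hb φ' ψ hφ'0 hφ'b hψ hψb
  have hc'0 : c' ≠ 0 := by
    intro h
    rw [h, zero_smul] at hg'b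
    exact hb (H98.gl_mulVec_injective g' (by simpa using hg'b))
  refine Nat.card_le_card_of_injective
    (fun x => (⟨d⁻¹ * (c' * c) * x.1, ?_⟩ : scalars M ψ b)) ?_
  · have h := hasEl_conj hg' (hasEl_conj hg (mem_scalars.1 x.2))
    rw [mem_scalars]
    refine hasEl_congr h (by rw [map_smul, hψb, smul_zero]) fun y => ?_
    rw [Matrix.mulVec_smul, hgc, Matrix.mulVec_smul, Matrix.mulVec_smul, hg'b, hψe, hφ', LinearMap.smul_apply]
    simp only [smul_smul, LinearMap.comp_apply, smul_eq_mul]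
    congr 1
    field_simp
  · intro x y hxy
    exact Subtype.ext (mul_left_cancel₀ (mul_ne_zero (inv_ne_zero hd) (mul_ne_zero hc'0 hc0))
      (congrArg Subtype.val hxy))

theorem scalars_eq_top (M : Subgroup (GL (Fin 3) F)) (hpt : PointTransitive M) (h2 : TwoCentres M)
    {φ : VV →ₗ[F] F} {a : VV} (hφ : φ ≠ 0) (ha : a ≠ 0) (hφa : φ a = 0) : scalars M φ a = ⊤ := by
  classical
  obtain ⟨p, hp⟩ := CharP.exists F
  haveI hpp : Fact p.Prime := ⟨CharP.char_is_prime F p⟩
  obtain ⟨n, -, hn⟩ := FiniteField.card F p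
  set q := Fintype.card F with hq
  set h := Nat.card (scalars M φ a) with hh
  have hconst : ∀ v : VV, v ≠ 0 → φ v = 0 → Nat.card (scalars M φ v) = h := fun v hv hφv =>
    le_antisymm (card_scalars_eq M hpt h2 hφ hφ hv ha hφv hφa) (card_scalars_eq M hpt h2 hφ hφ ha hv hφa hφv)
  have hh2 : 2 ≤ h := by
    obtain ⟨u, v, huv, hu, -⟩ := h2 φ hφ
    have hu0 : u ≠ 0 := huv.ne_zero 0
    rw [← hconst u hu0 hu.1]
    have : Nontrivial (scalars M φ u) :=
      ⟨⟨0, ⟨1, mem_scalars.2 (by rwa [one_smul])⟩, fun e => zero_ne_one (congrArg Subtype.val e)⟩⟩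
    exact Finite.one_lt_card
  haveI : Finite (VV) := Pi.finite
  set W := centres M φ with hW
  have hWle : W ≤ (LinearMap.ker φ).toAddSubgroup := fun v hv => hv.1
  have hker : Nat.card (LinearMap.ker φ) = q ^ 2 := by
    have hr : LinearMap.range φ = ⊤ := LinearMap.range_eq_top.2 (LinearMap.surjective hφ)
    have h3 := φ.finrank_range_add_finrank_ker
    rw [hr, finrank_top, Module.finrank_self, Module.finrank_fin_fun] at h3
    rw [Module.natCard_eq_pow_finrank (K := F), Nat.card_eq_fintype_card, ← hq]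
    congr 1
    omega
  -- count the pairs of a nonzero vector of the axis and an admissible multiple
  let A := {v : LinearMap.ker φ // v ≠ 0}
  let B := fun v : A => {x : F // x ∈ scalars M φ (v.1 : VV) ∧ x ≠ 0}
  let eqv : (Σ v : A, B v) ≃ {w : W // w ≠ 0} × Fˣ :=
    { toFun := fun vx => (⟨⟨(vx.2.1 : F) • (vx.1.1 : VV), vx.2.2.1⟩, fun e => by
          rcases smul_eq_zero.1 (congrArg Subtype.val e) with e | e
          · exact vx.2.2.2 e
          · exact vx.1.2 (Subtype.ext e)⟩, Units.mk0 (vx.2.1 : F) vx.2.2.2)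
      invFun := fun wu => ⟨⟨⟨((wu.2⁻¹ : Fˣ) : F) • (wu.1.1 : VV), by
          rw [LinearMap.mem_ker, map_smul, (hWle wu.1.1.2 : φ (wu.1.1 : VV) = 0), smul_zero]⟩,
        fun e => wu.1.2 (Subtype.ext
          ((smul_eq_zero.1 (congrArg Subtype.val e)).resolve_left (wu.2⁻¹).ne_zero))⟩,
        ⟨(wu.2 : F), by
          rw [mem_scalars]
          show HasEl M φ ((wu.2 : F) • (((wu.2⁻¹ : Fˣ) : F) • (wu.1.1 : VV)))
          rw [smul_smul, Units.mul_inv, one_smul]
          exact wu.1.1.2, wu.2.ne_zero⟩⟩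
      left_inv := fun vx => by
        obtain ⟨⟨⟨v, hv⟩, hv0⟩, ⟨x, hx, hx0⟩⟩ := vx
        have e : ((Units.mk0 x hx0)⁻¹ : Fˣ) • (x • v) = v := by
          rw [Units.smul_def, smul_smul]; simp [hx0]
        refine Sigma.ext (Subtype.ext (Subtype.ext e)) ((Subtype.heq_iff_coe_eq fun y => ?_).2 rfl)
        show (y ∈ scalars M φ (((Units.mk0 x hx0)⁻¹ : Fˣ) • (x • v)) ∧ y ≠ 0) ↔ _
        rw [e]
      right_inv := fun wu => by
        refine Prod.ext (Subtype.ext (Subtype.ext ?_)) (Units.ext rfl)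
        show (wu.2 : F) • (((wu.2⁻¹ : Fˣ) : F) • (wu.1.1 : VV)) = _
        rw [smul_smul, Units.mul_inv, one_smul] }
  have hB : ∀ v : A, Nat.card (B v) = h - 1 := by
    intro v
    haveI : Fintype (scalars M φ (v.1 : VV)) := Fintype.ofFinite _
    rw [Nat.card_congr ((Equiv.subtypeEquivRight fun x => Iff.rfl).trans
        ((Equiv.subtypeSubtypeEquivSubtypeInter (· ∈ scalars M φ (v.1 : VV)) (· ≠ 0)).symm.trans
        (Equiv.subtypeEquivRight fun x : scalars M φ (v.1 : VV) =>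
          (⟨fun h e => h (congrArg Subtype.val e), fun h e => h (Subtype.ext e)⟩ : (x : F) ≠ 0 ↔ x ≠ 0)))),
      ← hconst (v.1 : VV) (fun e => v.2 (Subtype.ext e)) v.1.2, Nat.card_eq_fintype_card,
      Nat.card_eq_fintype_card, Fintype.card_subtype_compl, Fintype.card_subtype_eq]
  have hcount := Nat.card_congr eqv
  haveI : Fintype A := Fintype.ofFinite _
  rw [Nat.card_sigma, Finset.sum_congr rfl (fun v _ => hB v), Finset.sum_const, Finset.card_univ,
    smul_eq_mul, Nat.card_prod, ← Nat.card_eq_fintype_card] at hcount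
  have hA : Nat.card A = q ^ 2 - 1 := by
    haveI : Fintype (LinearMap.ker φ) := Fintype.ofFinite _
    rw [← hker, Nat.card_eq_fintype_card, Nat.card_eq_fintype_card, Fintype.card_subtype_compl,
      Fintype.card_subtype_eq]
  have hW0 : Nat.card {w : W // w ≠ 0} = Nat.card W - 1 := by
    haveI : Fintype W := Fintype.ofFinite _
    rw [Nat.card_eq_fintype_card, Nat.card_eq_fintype_card, Fintype.card_subtype_compl, Fintype.card_subtype_eq]
  have hU : Nat.card Fˣ = q - 1 := by rw [Nat.card_eq_fintype_card, Fintype.card_units]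
  rw [hA, hW0, hU] at hcount
  have hq2 : 2 ≤ q := Fintype.one_lt_card
  have hWpos : 1 ≤ Nat.card W := Nat.card_pos
  have hWcard : Nat.card W = 1 + (q + 1) * (h - 1) := by
    have e : q ^ 2 - 1 = (q + 1) * (q - 1) := by rw [← Nat.sq_sub_sq, one_pow]
    rw [e, mul_comm _ (q - 1), mul_assoc, mul_comm (Nat.card W - 1)] at hcount
    have := Nat.eq_of_mul_eq_mul_left (by omega : 0 < q - 1) hcount
    omega
  -- both numbers are powers of the characteristic
  obtain ⟨i, hi, hhi⟩ : ∃ i ≤ (n : ℕ), h = p ^ i := by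
    have hd : h ∣ p ^ (n : ℕ) := by
      rw [← hn, hh, hq, ← Nat.card_eq_fintype_card]
      exact AddSubgroup.card_addSubgroup_dvd_card _
    exact (Nat.dvd_prime_pow hpp.out).1 hd
  obtain ⟨j, -, hWj⟩ : ∃ j ≤ (n : ℕ) * 2, Nat.card W = p ^ j := by
    refine (Nat.dvd_prime_pow hpp.out).1 ?_
    rw [pow_mul, ← hn, ← hker]
    exact AddSubgroup.card_dvd_of_le hWle
  rcases hi.eq_or_lt with hin | hin
  · refine AddSubgroup.eq_top_of_card_eq _ ?_
    rw [← hh, hhi, hin, ← hn, hq, Nat.card_eq_fintype_card]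
  exfalso
  obtain ⟨k, hk, hnk⟩ : ∃ k, 0 < k ∧ (n : ℕ) = i + k := ⟨(n : ℕ) - i, by omega, by omega⟩
  have hqr : q = h * p ^ k := by rw [hn, hhi, hnk, pow_add]
  set r := p ^ k with hr
  have hr1 : 1 < r := Nat.one_lt_pow hk.ne' hpp.out.one_lt
  have hpr : p ∣ r := dvd_pow_self p hk.ne'
  have hrq : r < q := by rw [hqr]; nlinarith
  have hWfac : Nat.card W = h * (q + 1 - r) := by
    rw [hWcard]
    zify [show 1 ≤ h by omega, show r ≤ q + 1 by omega]
    rw [hqr]; push_cast; ring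
  have hdvd : q + 1 - r ∣ p ^ j := hWj ▸ hWfac ▸ dvd_mul_left _ _
  obtain ⟨l, -, hl⟩ := (Nat.dvd_prime_pow hpp.out).1 hdvd
  rcases Nat.eq_zero_or_pos l with rfl | hl0
  · rw [pow_zero] at hl; omega
  · have h1 : p ∣ q + 1 - r := hl ▸ dvd_pow_self p hl0.ne'
    have h2 : p ∣ q + 1 := by
      have := Nat.dvd_add h1 hpr
      rwa [Nat.sub_add_cancel (by omega : r ≤ q + 1)] at this
    have h3 : p ∣ q := hn ▸ dvd_pow_self p n.pos.ne'
    exact hpp.out.one_lt.ne' (Nat.dvd_one.1 ((Nat.dvd_add_right h3).1 h2))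

/-- Gleason's lemma. -/
theorem gleasonPiece : GleasonPiece (F := F) := by
  intro M hpt h2
  refine H98.sl_le_of_transvections M fun φ a ha => ?_
  by_cases h0 : φ = 0 ∨ a = 0
  · convert M.one_mem
    refine H98.gl_ext fun v => ?_
    rcases h0 with h | h <;> simp [h]
  · push Not at h0
    have h1 : (1 : F) ∈ scalars M φ a := by rw [scalars_eq_top M hpt h2 h0.1 h0.2 ha]; trivial
    rw [mem_scalars, one_smul] at h1
    exact h1.2

end Cfsg.Agent.H6.SingerGleason
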