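import Cfsg.Agent.H5.StabNondegGL
import Cfsg.Agent.H5.DecGL
import Cfsg.Agent.H5.DecTwoGL
import Cfsg.Agent.H5.FrameGL
import Cfsg.Agent.H5.OmegaGL
import Cfsg.Agent.H5.StabVector
import Cfsg.Agent.H58.ExtField.OrthField
import Cfsg.Agent.H98.OrthSubMain
import Cfsg.Agent.H98.QuadFun

set_option autoImplicit false
set_option linter.unusedSectionVars false

/-!
Geometric maximal subgroups of the ten-dimensional orthogonal groups: the parts common to both types.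
-/

namespace Cfsg.Agent.H6.OmegaTen

open QuadraticMap

variable {F : Type*} [Field F] [Fintype F] {Q : (Fin 10 → F) → F}

theorem plus_of_planes (hQ : Cfsg.Geo.IsNondegenerateQuadraticForm Q) {D : Fin 5 → Submodule F (Fin 10 → F)}
    (hD : Cfsg.Geo.IsOrthogonalMDecomposition Q 2 D) (hp : ∀ i, Cfsg.Geo.IsPlusTypeOn Q (D i)) :
    Cfsg.Geo.IsPlusTypeOn Q ⊤ := by
  classical
  have hx : ∀ i, ∃ x, x ∈ D i ∧ x ≠ 0 ∧ Q x = 0 := fun i => by
    obtain ⟨U, hU, hUs, hd⟩ := hp i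
    rw [hD.decomp.1.finrank_eq i] at hd
    obtain ⟨x, hxU, hx0⟩ := Submodule.exists_mem_ne_zero_of_ne_bot
      (show U ≠ ⊥ from fun h => by rw [h, finrank_bot] at hd; omega)
    exact ⟨x, hU hxU, hx0, hUs x hxU⟩
  choose x hxD hx0 hxQ using hx
  have hli : LinearIndependent F x := hD.decomp.1.indep.linearIndependent D hxD hx0
  refine ⟨Submodule.span F (Set.range x), le_top, ?_, ?_⟩
  · intro w hw
    obtain ⟨c, rfl⟩ := (Submodule.mem_span_range_iff_exists_fun F).1 hw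
    have hq := H98.coe_qOfFun hQ
    suffices h : ∀ s : Finset (Fin 5), H98.qOfFun Q hQ (∑ i ∈ s, c i • x i) = 0 by rw [← hq]; exact h _
    intro s
    induction s using Finset.induction_on with
    | empty => rw [Finset.sum_empty, QuadraticMap.map_zero]
    | insert a s ha ih =>
      rw [Finset.sum_insert ha, QuadraticMap.map_add (⇑(H98.qOfFun Q hQ)), ih, QuadraticMap.map_smul, hq, hxQ,
        smul_zero, zero_add, zero_add, ← hq, ← polarBilin_apply_apply, map_sum]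
      refine Finset.sum_eq_zero fun i hi => ?_
      rw [polarBilin_apply_apply, hq]
      exact hD.decomp.orthogonal a i (fun h => ha (h ▸ hi)) _ ((D a).smul_mem _ (hxD a)) _ ((D i).smul_mem _ (hxD i))
  · rw [finrank_span_eq_card hli, finrank_top, Module.finrank_fintype_fun_eq_card]
    simp

variable (hQ : Cfsg.Geo.IsNondegenerateQuadraticForm Q)
include hQ

theorem stab_singular (W : Submodule F (Fin 10 → F)) (hW0 : W ≠ ⊥) (hW : Cfsg.Geo.IsTotallySingularQuad Q W)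
    (h : Module.finrank F W ≠ 4 ∨ ¬ Cfsg.Geo.IsPlusTypeOn Q ⊤) :
    Cfsg.Geo.IsMaximalIn (Cfsg.Geo.omegaGL Q) (Cfsg.Geo.subspaceStabilizer W ⊓ Cfsg.Geo.omegaGL Q) := by
  refine H5.isMaximalIn_stab_singular (H98.qOfFun Q hQ) (H98.coe_qOfFun hQ) (H98.qOfFun_nondeg hQ)
    (by simp) W hW0 hW (fun U _ hU hd h2 => ?_)
  rw [Fintype.card_fin] at h2
  rcases h with h | h
  · omega
  · refine h ⟨U, le_top, hU, ?_⟩
    rw [finrank_top, Module.finrank_fintype_fun_eq_card, Fintype.card_fin, h2]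

theorem stab_nondeg (W : Submodule F (Fin 10 → F)) (hd0 : Module.finrank F W ≠ 0) (hd10 : Module.finrank F W ≠ 10)
    (hd5 : Module.finrank F W ≠ 5) (hd8 : Module.finrank F W ≠ 8)
    (hW : Cfsg.Geo.IsNondegenerateOn (QuadraticMap.polar Q) W)
    (hex : Module.finrank F W = 2 → Cfsg.Geo.IsPlusTypeOn Q W → 4 ≤ Fintype.card F) :
    Cfsg.Geo.IsMaximalIn (Cfsg.Geo.omegaGL Q) (Cfsg.Geo.subspaceStabilizer W ⊓ Cfsg.Geo.omegaGL Q) := by
  have hQ' := H98.qOfFun_nondeg hQ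
  have hf := H98.coe_qOfFun hQ
  have hWU := H5.inf_perp_of_isNondegenerateOn (H98.qOfFun Q hQ) hf hW
  have hsum := H5.finrank_perp_add hQ' W
  rw [Module.finrank_fintype_fun_eq_card, Fintype.card_fin] at hsum
  refine H5.isMaximalIn_stab_nondeg_five (H98.qOfFun Q hQ) hf hQ' W (by rw [Fintype.card_fin]; omega)
    (fun h => hd0 (by rw [h, finrank_bot]))
    (fun h => hd10 (by rw [h, finrank_top, Module.finrank_fintype_fun_eq_card, Fintype.card_fin])) hWU
    (fun h => by rw [Fintype.card_fin] at h; omega) ?_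
  rintro P hP ⟨hq, hP2, x, hx, hx0, hqx⟩
  rw [Nat.card_eq_fintype_card] at hq
  rcases hP with rfl | rfl
  · have := hex hP2 (by rw [← hf]; exact H5.isPlusTypeOn_plane (H98.qOfFun Q hQ) hP2 hx hx0 hqx)
    omega
  · omega

theorem stab_odd (W : Submodule F (Fin 10 → F)) (hW0 : W ≠ ⊥) (hW1 : W ≠ ⊤) (ho : Odd (Module.finrank F W))
    (h5 : 2 * Module.finrank F W ≠ 10) (hW : Cfsg.Geo.IsNondegenerateOn (QuadraticMap.polar Q) W) :
    Cfsg.Geo.IsMaximalIn (Cfsg.Geo.omegaGL Q) (Cfsg.Geo.subspaceStabilizer W ⊓ Cfsg.Geo.omegaGL Q) := by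
  have h1 := Submodule.finrank_lt hW1
  rw [Module.finrank_fintype_fun_eq_card, Fintype.card_fin] at h1
  obtain ⟨j, hj⟩ := ho
  exact stab_nondeg hQ W (by omega) (by omega) (by omega) (by omega) hW (fun h => by omega)

theorem stab_point (hchar : ¬ Odd (Fintype.card F)) (v : Fin 10 → F) (hv : Q v ≠ 0) :
    Cfsg.Geo.IsMaximalIn (Cfsg.Geo.omegaGL Q) (Cfsg.Geo.subspaceStabilizer (Submodule.span F {v}) ⊓ Cfsg.Geo.omegaGL Q) := by
  classical
  have h2 : (2 : F) = 0 := by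
    by_contra h2
    apply hchar
    rw [Nat.odd_iff]
    refine FiniteField.odd_card_of_char_ne_two fun hc => h2 ?_
    haveI : CharP F 2 := (ringChar.eq_iff).1 hc
    exact CharTwo.two_eq_zero
  haveI : Finite (Fin 10 → F) := Pi.finite
  have hr : Module.finrank F (Fin 10 → F) = 10 := by simp
  refine H5.isMaximalIn_omegaGL (H98.qOfFun Q hQ) (H98.coe_qOfFun hQ) _ ?_ ?_
  · obtain ⟨g, hg, hgv⟩ := H5.exists_not_preserves_point (Q := H98.qOfFun Q hQ)
      (H98.qOfFun_nondeg hQ) (by omega) (v := v) (by rwa [H98.coe_qOfFun hQ])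
    exact ⟨g, hg, fun h => hgv ((H5.toGLHom_mem_stab_iff _ _ _ g).1 h)⟩
  · intro M hM g hgM _ hgS
    exact H5.commutator_le_of_point (H98.qOfFun_nondeg hQ) h2 (by omega) (v := v) (by rwa [H98.coe_qOfFun hQ])
      (fun k hk hkW => hM k hk ((H5.toGLHom_mem_stab_iff _ _ _ k).2 hkW)) hgM
      (fun h => hgS ((H5.toGLHom_mem_stab_iff _ _ _ g).2 h))

theorem frame (hp : ∃ p : ℕ, p.Prime ∧ Fintype.card F = p ∧ p % 2 = 1) (D : Fin 10 → Submodule F (Fin 10 → F))
    (hD : Cfsg.Geo.IsOrthogonalMDecomposition Q 1 D) :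
    Cfsg.Geo.IsMaximalIn (Cfsg.Geo.omegaGL Q) (Cfsg.Geo.decompositionStabilizer D ⊓ Cfsg.Geo.omegaGL Q) := by
  obtain ⟨p, hpp, hpc, hp2⟩ := hp
  exact H5.isMaximalIn_frame (H98.coe_qOfFun hQ) (H98.qOfFun_nondeg hQ) (by simp) hD
    (by rw [hpc, Nat.odd_iff]; exact hp2) (by rw [hpc]; exact hpp)

theorem halves (D : Fin 2 → Submodule F (Fin 10 → F)) (hD : Cfsg.Geo.IsOrthogonalMDecomposition Q 5 D) :
    Cfsg.Geo.IsMaximalIn (Cfsg.Geo.omegaGL Q) (Cfsg.Geo.decompositionStabilizer D ⊓ Cfsg.Geo.omegaGL Q) :=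
  H5.isMaximalIn_dec_five (H98.coe_qOfFun hQ) (H98.qOfFun_nondeg hQ) (by simp) hD (by omega) (fun h => by omega)
    (fun _ h => by omega)

theorem halves_not_isometric (D : Fin 2 → Submodule F (Fin 10 → F))
    (hD : Cfsg.Geo.IsNondegenerateMDecomposition (QuadraticMap.polar Q) 5 D)
    (hni : ¬ Cfsg.Geo.AreIsometricFor Q (D 0) (D 1)) :
    Cfsg.Geo.IsMaximalIn (Cfsg.Geo.omegaGL Q) (Cfsg.Geo.decompositionStabilizer D ⊓ Cfsg.Geo.omegaGL Q) := by
  classical
  have hQ' := H98.qOfFun_nondeg hQ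
  have hf := H98.coe_qOfFun hQ
  obtain ⟨hdec, hnd, horth⟩ := hD
  have hWU := H5.inf_perp_of_isNondegenerateOn (H98.qOfFun Q hQ) hf (hnd 0)
  have hsum := H5.finrank_perp_add hQ' (D 0)
  rw [Module.finrank_fintype_fun_eq_card, Fintype.card_fin] at hsum
  have h0 : Module.finrank F (D 0) = 5 := hdec.finrank_eq 0
  have h1 : D 1 = H5.perp (H98.qOfFun Q hQ) (D 0) :=
    Submodule.eq_of_le_of_finrank_eq
      (fun v hv => H5.mem_perp.2 fun u hu => by rw [hf]; exact horth 0 1 (by decide) u hu v hv)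
      (by rw [hdec.finrank_eq 1]; omega)
  have hswap : ∀ (e : (Fin 10 → F) ≃ₗ[F] (Fin 10 → F)), (∀ x, Q (e x) = Q x) →
      ¬ ∀ x ∈ D 0, e x ∈ H5.perp (H98.qOfFun Q hQ) (D 0) := by
    intro e he hmap
    have hle : (D 0).map (e : (Fin 10 → F) →ₗ[F] (Fin 10 → F)) = D 1 := by
      refine Submodule.eq_of_le_of_finrank_eq ?_
        (by rw [LinearEquiv.finrank_map_eq, h0, hdec.finrank_eq 1])
      rintro _ ⟨x, hx, rfl⟩
      rw [h1]
      exact hmap x hx
    exact hni ⟨(e.submoduleMap (D 0)).trans (LinearEquiv.ofEq _ _ hle), fun w => he w⟩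
  have hgQ : ∀ g : H5.orth (H98.qOfFun Q hQ), ∀ x, Q ((g : (Fin 10 → F) ≃ₗ[F] (Fin 10 → F)) x) = Q x := fun g x =>
    (congrFun hf _).symm.trans ((g.2 x).trans (congrFun hf x))
  have hstab : Cfsg.Geo.decompositionStabilizer D ⊓ Cfsg.Geo.omegaGL Q =
      Cfsg.Geo.subspaceStabilizer (D 0) ⊓ Cfsg.Geo.omegaGL Q := by
    rw [H5.omegaGL_eq_map _ hf]
    ext x
    simp only [Subgroup.mem_inf]
    refine and_congr_left fun hx => ?_
    obtain ⟨g, -, rfl⟩ := hx
    have hlin : Matrix.toLin' ((H5.toGLHom _ hf g : GL (Fin 10) F) : Matrix (Fin 10) (Fin 10) F) =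
        ((g : (Fin 10 → F) ≃ₗ[F] (Fin 10 → F)) : (Fin 10 → F) →ₗ[F] (Fin 10 → F)) := by
      refine LinearMap.ext fun v => ?_
      rw [Matrix.toLin'_apply]
      exact H5.toGLHom_mulVec _ hf g v
    rw [H5.toGLHom_mem_stab_iff]
    constructor
    · rintro ⟨σ, hσ⟩
      have h := hσ 0
      rw [hlin] at h
      rcases Fin.exists_fin_two.1 ⟨σ 0, rfl⟩ with hs | hs
      · rw [hs] at h
        exact fun v hv => h ▸ Submodule.mem_map_of_mem hv
      · rw [hs, h1] at h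
        exact absurd (fun v hv => h ▸ Submodule.mem_map_of_mem hv) (hswap _ (hgQ g))
    · intro hg
      refine ⟨1, fun i => ?_⟩
      rw [hlin, Equiv.Perm.one_apply]
      refine Submodule.eq_of_le_of_finrank_eq ?_ (LinearEquiv.finrank_map_eq _ _)
      rintro _ ⟨v, hv, rfl⟩
      fin_cases i
      · exact hg v hv
      · change v ∈ D 1 at hv
        change _ ∈ D 1
        rw [h1] at hv ⊢
        exact hg.perp v hv
  rw [hstab]
  refine H5.isMaximalIn_stab_nondeg_five (H98.qOfFun Q hQ) hf hQ' (D 0) (Or.inl h0.ge) ?_ ?_ hWU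
    (fun _ g => hswap _ (hgQ g)) ?_
  · intro h
    rw [h, finrank_bot] at h0
    omega
  · intro h
    rw [h, finrank_top, Module.finrank_fintype_fun_eq_card, Fintype.card_fin] at h0
    omega
  · rintro P hP ⟨-, hP2, -⟩
    rcases hP with rfl | rfl <;> omega

theorem field_two (hodd : Odd (Fintype.card F)) (K : Subalgebra F (Matrix (Fin 10) (Fin 10) F))
    (hK : Cfsg.Geo.IsFieldSubalgebra 2 K) (hsa : Cfsg.Geo.IsSelfAdjointFor (QuadraticMap.polar Q) K) :
    Cfsg.Geo.IsMaximalIn (Cfsg.Geo.omegaGL Q) (Cfsg.Geo.subalgebraNormalizer K ⊓ Cfsg.Geo.omegaGL Q) := by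
  classical
  have h2 : (2 : F) ≠ 0 := fun h => by
    have h1 : ringChar F = 2 := CharP.ringChar_of_prime_eq_zero Nat.prime_two h
    have := FiniteField.even_card_iff_char_two.1 h1
    rw [Nat.odd_iff] at hodd
    omega
  exact H58.ExtField.Orth.field_maximal_orth (H98.qOfFun Q hQ) (H98.coe_qOfFun hQ) (H98.qOfFun_nondeg hQ) h2
    Nat.prime_two hK (by simp) (Or.inr (by simp)) hsa

theorem subfield (F₀ : Subfield F) (r : ℕ) (P : Matrix.GeneralLinearGroup (Fin 10) F) (ζ : F) (hr : r.Prime)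
    (hcard : Fintype.card F = Nat.card F₀ ^ r) (hζ : ζ ≠ 0)
    (hP : Cfsg.Geo.IsQuadFormRationalStructure (fun v : Fin 10 → F => ζ * Q v) F₀ P) :
    Cfsg.Geo.IsMaximalIn (Cfsg.Geo.omegaGL Q) (Cfsg.Geo.subfieldSubgroup F₀ P ⊓ Cfsg.Geo.omegaGL Q) :=
  H98.OSub.subfield_maximal (H98.qOfFun Q hQ) (H98.coe_qOfFun hQ) (H98.qOfFun_nondeg hQ) (by simp) F₀ hr
    (by rw [Nat.card_eq_fintype_card]; exact hcard) P hζ hP

end Cfsg.Agent.H6.OmegaTen
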