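import Mathlib

/-!
# Elements of small order in `PSL₃(4)`
-/

set_option autoImplicit false

open Matrix MatrixGroups

namespace Cfsg.Agent.H6.PSL34

variable {F : Type*} [Field F]

lemma pow_three_of_center {z : SL(3, F)} (hz : z ∈ Subgroup.center SL(3, F)) : z ^ 3 = 1 := by
  obtain ⟨r, hr, e⟩ := Matrix.SpecialLinearGroup.mem_center_iff.1 hz
  rw [Fintype.card_fin] at hr
  apply Matrix.SpecialLinearGroup.ext
  intro i j
  rw [Matrix.SpecialLinearGroup.coe_pow, ← e, ← map_pow, hr, map_one]
  rfl

/-- The standard transvection of `SL₃`. -/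
def std : SL(3, F) := ⟨!![1, 0, 1; 0, 1, 0; 0, 0, 1], by simp [det_fin_three]⟩

/-- In characteristic two every involution of `SL₃` is conjugate to a standard transvection. -/
lemma isConj_std {h : SL(3, F)} (h2 : (2 : F) = 0) (hh : h * h = 1) (hne : h ≠ 1) :
    IsConj std h := by
  classical
  set N : Matrix (Fin 3) (Fin 3) F := (h : Matrix (Fin 3) (Fin 3) F) - 1 with hN
  have hNN : N * N = 0 := by
    have e : (h : Matrix (Fin 3) (Fin 3) F) * h = 1 := congrArg Subtype.val hh
    have : N * N = (2 : F) • ((1 : Matrix (Fin 3) (Fin 3) F) - h) := by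
      rw [hN]; simp only [sub_mul, mul_sub, e, mul_one, one_mul]; module
    rw [this, h2, zero_smul]
  have hN0 : N ≠ 0 := fun e => hne (Subtype.ext (sub_eq_zero.1 e))
  obtain ⟨v, hv⟩ : ∃ v : Fin 3 → F, N *ᵥ v ≠ 0 := by
    by_contra hc
    push Not at hc
    exact hN0 (Matrix.ext_of_mulVec_single fun i => by rw [hc, zero_mulVec])
  set w := N *ᵥ v with hw
  have hNw : N *ᵥ w = 0 := by rw [hw, mulVec_mulVec, hNN, zero_mulVec]
  obtain ⟨u, hu, hu'⟩ : ∃ u : Fin 3 → F, N *ᵥ u = 0 ∧ u ∉ Submodule.span F {w} := by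
    by_contra hc
    push Not at hc
    have hle : LinearMap.ker N.toLin' ≤ Submodule.span F {w} := fun x hx =>
      hc x (by simpa [Matrix.toLin'_apply] using hx)
    have hrk : LinearMap.range N.toLin' ≤ LinearMap.ker N.toLin' := by
      rintro x ⟨y, rfl⟩
      simp [Matrix.toLin'_apply, mulVec_mulVec, hNN]
    have h1 := Submodule.finrank_mono hle
    have h1' := Submodule.finrank_mono hrk
    have h2' := LinearMap.finrank_range_add_finrank_ker N.toLin'
    rw [finrank_span_singleton hv] at h1
    rw [Module.finrank_fin_fun] at h2'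
    omega
  let M : Matrix (Fin 3) (Fin 3) F := Matrix.of fun i j => ![w, u, v] j i
  have hMv : ∀ x : Fin 3 → F, M *ᵥ x = x 0 • w + x 1 • u + x 2 • v := by
    intro x; ext i; simp [M, mulVec, dotProduct, Fin.sum_univ_three]; ring
  have hdet : M.det ≠ 0 := by
    intro h0
    obtain ⟨x, hx, hx0⟩ := Matrix.exists_mulVec_eq_zero_iff.2 h0
    rw [hMv] at hx0
    have e := congrArg (N *ᵥ ·) hx0
    simp only [mulVec_add, mulVec_smul, hNw, hu, ← hw, smul_zero, zero_add, add_zero,
      mulVec_zero] at e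
    have hc : x 2 = 0 := (smul_eq_zero.1 e).resolve_right hv
    rw [hc, zero_smul, add_zero] at hx0
    by_cases hb : x 1 = 0
    · rw [hb, zero_smul, add_zero] at hx0
      have ha := (smul_eq_zero.1 hx0).resolve_right hv
      exact hx (funext fun i => by fin_cases i <;> simp [ha, hb, hc])
    · refine hu' (Submodule.mem_span_singleton.2 ⟨-x 0 / x 1, ?_⟩)
      ext i
      have := congrFun hx0 i
      simp at this ⊢
      field_simp
      linear_combination (-1 : F) * this
  set c := M.det
  let P : SL(3, F) := ⟨M * diagonal ![1, c⁻¹, 1], by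
    rw [det_mul, det_diagonal]; simp [Fin.prod_univ_three]; field_simp [hdet]; rfl⟩
  refine isConj_iff.2 ⟨P, ?_⟩
  rw [mul_inv_eq_iff_eq_mul]
  have hh' : (h : Matrix (Fin 3) (Fin 3) F) = N + 1 := by rw [hN, sub_add_cancel]
  refine Subtype.ext (show (P : Matrix (Fin 3) (Fin 3) F) * (std : SL(3, F)) = h * P from ?_)
  simp only [hh', add_mul, one_mul]
  apply Matrix.ext_of_mulVec_single
  intro i
  rw [add_mulVec, ← mulVec_mulVec, ← mulVec_mulVec]
  simp only [P, ← mulVec_mulVec, hMv, mulVec_add, mulVec_smul, hNw, hu, ← hw, smul_zero]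
  fin_cases i <;> ext k <;> simp [std, mulVec, dotProduct, Fin.sum_univ_three, Pi.single_apply, diagonal]
  <;> ring

variable [Fintype F]

lemma two_eq_zero (hF : Fintype.card F = 4) : (2 : F) = 0 := by
  have h : ((4 : ℕ) : F) = 0 := hF ▸ FiniteField.cast_card_eq_zero F
  have : (2 : F) * 2 = 0 := by rw [← h]; norm_num
  exact mul_self_eq_zero.1 this

lemma pow_three (hF : Fintype.card F = 4) {x : F} (hx : x ≠ 0) : x ^ 3 = 1 := by
  simpa [hF] using FiniteField.pow_card_sub_one_eq_one x hx

/-- In `SL₃(4)` an element commuting with an element of order five and having central cube is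
scalar. -/
lemma mem_center_of_commute_five (hF : Fintype.card F = 4) {a b : SL(3, F)} (ha : a ^ 5 = 1)
    (ha1 : a ≠ 1) (hc : a * b = b * a) (hb : b ^ 3 ∈ Subgroup.center SL(3, F)) :
    b ∈ Subgroup.center SL(3, F) := by
  classical
  have h2 := two_eq_zero hF
  -- fixed vectors of `a`
  let f : (Fin 3 → F) →ₗ[F] (Fin 3 → F) := Matrix.toLin' ((a : Matrix (Fin 3) (Fin 3) F) - 1)
  have hfix : Nat.card (LinearMap.ker f) % 5 = 4 := by
    let P := Subgroup.zpowers a
    have hP : IsPGroup 5 P := IsPGroup.of_card (n := 1) (by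
      rw [Nat.card_zpowers, pow_one]
      exact orderOf_eq_prime (hp := ⟨by norm_num⟩) ha ha1)
    haveI : Fact (Nat.Prime 5) := ⟨by norm_num⟩
    have hm := hP.card_modEq_card_fixedPoints (Fin 3 → F)
    have hcard : Nat.card (Fin 3 → F) = 64 := by
      rw [Nat.card_eq_fintype_card, Fintype.card_fun, hF, Fintype.card_fin]; norm_num
    have e : Nat.card (MulAction.fixedPoints P (Fin 3 → F)) = Nat.card (LinearMap.ker f) := by
      refine Nat.card_congr (Equiv.subtypeEquivRight fun x => ?_)
      rw [LinearMap.mem_ker, MulAction.mem_fixedPoints]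
      simp only [f, Matrix.toLin'_apply, sub_mulVec, one_mulVec, sub_eq_zero]
      constructor
      · intro h
        have := h ⟨a, Subgroup.mem_zpowers a⟩
        rw [Subgroup.smul_def, Matrix.SpecialLinearGroup.smul_def] at this
        exact this
      · rintro h ⟨g, hg⟩
        have hle : Subgroup.zpowers a ≤ MulAction.stabilizer SL(3, F) x := by
          rw [Subgroup.zpowers_le, MulAction.mem_stabilizer_iff]
          rw [Matrix.SpecialLinearGroup.smul_def]
          exact h
        exact hle hg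
    rw [hcard, e] at hm
    rw [← hm]
  have hker : Module.finrank F (LinearMap.ker f) = 1 := by
    have hk := Module.natCard_eq_pow_finrank (K := F) (V := LinearMap.ker f)
    rw [Nat.card_eq_fintype_card (α := F), hF] at hk
    have hle : Module.finrank F (LinearMap.ker f) ≤ 3 :=
      le_trans (Submodule.finrank_le _) (le_of_eq (Module.finrank_fin_fun F))
    have hne : Module.finrank F (LinearMap.ker f) ≠ 3 := by
      intro h3
      apply ha1
      have htop : LinearMap.ker f = ⊤ :=
        Submodule.eq_top_of_finrank_eq (by rw [h3, Module.finrank_fin_fun])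
      have : (a : Matrix (Fin 3) (Fin 3) F) - 1 = 0 :=
        Matrix.toLin'.injective (by rw [map_zero]; exact LinearMap.ker_eq_top.1 htop)
      exact Subtype.ext (sub_eq_zero.1 this)
    rw [hk] at hfix
    rcases hn : Module.finrank F (LinearMap.ker f) with _ | _ | _ | _ | n <;>
      rw [hn] at hfix hle hne <;> first | omega | simp_all
  obtain ⟨⟨w, hw⟩, hw0, hspan⟩ := finrank_eq_one_iff'.1 hker
  have hw0' : w ≠ 0 := fun e => hw0 (Subtype.ext e)
  have hcm : (a : Matrix (Fin 3) (Fin 3) F) * b = b * a := congrArg Subtype.val hc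
  have hbw : (b : Matrix (Fin 3) (Fin 3) F) *ᵥ w ∈ LinearMap.ker f := by
    rw [LinearMap.mem_ker] at hw ⊢
    simp only [f, Matrix.toLin'_apply, sub_mulVec, one_mulVec, sub_eq_zero] at hw ⊢
    rw [mulVec_mulVec, hcm, ← mulVec_mulVec, hw]
  obtain ⟨β, hβ⟩ := hspan ⟨_, hbw⟩
  have hβ' : (b : Matrix (Fin 3) (Fin 3) F) *ᵥ w = β • w := (congrArg Subtype.val hβ).symm
  -- the cube of `b` is trivial
  obtain ⟨c, -, hc3⟩ := Matrix.SpecialLinearGroup.mem_center_iff.1 hb
  replace hc3 : scalar (Fin 3) c = (b : Matrix (Fin 3) (Fin 3) F) ^ 3 := hc3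
  have hb3w : ((b : Matrix (Fin 3) (Fin 3) F) ^ 3) *ᵥ w = β ^ 3 • w := by
    simp only [pow_succ, pow_zero, one_mul, ← mulVec_mulVec, hβ', mulVec_smul, smul_smul, mul_assoc]
  have hcβ : c • w = β ^ 3 • w := by
    rw [← hb3w, ← hc3]; ext i; simp [mulVec_diagonal]
  have hdetb : (b : Matrix (Fin 3) (Fin 3) F).det = 1 := b.2
  have hc0 : c ≠ 0 := by
    intro e
    have := congrArg Matrix.det hc3
    simp [e, det_pow, hdetb] at this
  have hβ0 : β ≠ 0 := fun e => hc0 (by
    have h0 : (c - β ^ 3) • w = 0 := by rw [sub_smul, hcβ, sub_self]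
    simpa [e, sub_eq_zero] using (smul_eq_zero.1 h0).resolve_right hw0')
  have hc1 : c = 1 := by
    have h0 : (c - β ^ 3) • w = 0 := by rw [sub_smul, hcβ, sub_self]
    rw [sub_eq_zero.1 ((smul_eq_zero.1 h0).resolve_right hw0'), pow_three hF hβ0]
  rw [hc1, map_one] at hc3
  set B := (b : Matrix (Fin 3) (Fin 3) F) with hB
  -- an eigenbasis for `b`
  let S : Set (Fin 3 → F) := {v | ∃ μ : F, μ ^ 3 = 1 ∧ B *ᵥ v = μ • v}
  obtain ⟨ω, hω0, hω1⟩ : ∃ ω : F, ω ≠ 0 ∧ ω ≠ 1 := by
    have hlt : ({0, 1} : Finset F).card < Fintype.card F := by simp [hF]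
    obtain ⟨ω, hω⟩ := Finset.exists_mem_notMem_of_card_lt_card (s := ({0, 1} : Finset F))
      (t := Finset.univ) (by rwa [Finset.card_univ]) |>.imp fun x hx => hx.2
    exact ⟨ω, fun e => hω (by simp [e]), fun e => hω (by simp [e])⟩
  have hω3 : ω ^ 3 = 1 := pow_three hF hω0
  have hω2 : ω ^ 2 + ω + 1 = 0 := by
    have : (ω - 1) * (ω ^ 2 + ω + 1) = 0 := by linear_combination hω3
    exact (mul_eq_zero.1 this).resolve_left (sub_ne_zero.2 hω1)
  have hproj : ∀ μ : F, μ ^ 3 = 1 → ∀ v, v + μ ^ 2 • (B *ᵥ v) + μ • ((B * B) *ᵥ v) ∈ S := by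
    intro μ hμ v
    refine ⟨μ, hμ, ?_⟩
    have h3 : (B * (B * B)) *ᵥ v = v := by
      rw [← mul_assoc]
      rw [show B * B * B = B ^ 3 by simp [pow_succ], ← hc3, one_mulVec]
    simp only [mulVec_add, mulVec_smul, mulVec_mulVec, h3]
    ext i
    simp
    linear_combination (-(B *ᵥ v) i) * hμ
  have hsp : ⊤ ≤ Submodule.span F S := by
    rintro v -
    have e : v = (v + (1 : F) ^ 2 • (B *ᵥ v) + (1 : F) • ((B * B) *ᵥ v))
        + (v + ω ^ 2 • (B *ᵥ v) + ω • ((B * B) *ᵥ v))
        + (v + (ω ^ 2) ^ 2 • (B *ᵥ v) + ω ^ 2 • ((B * B) *ᵥ v)) := by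
      ext i
      simp
      grind
    rw [e]
    exact add_mem (add_mem (Submodule.subset_span (hproj 1 (one_pow 3) v))
      (Submodule.subset_span (hproj ω hω3 v)))
      (Submodule.subset_span (hproj (ω ^ 2) (by rw [← pow_mul, mul_comm, pow_mul, hω3, one_pow]) v))
  let e₀ := Module.Basis.ofSpan hsp
  let e := e₀.reindex (e₀.indexEquiv (Pi.basisFun F (Fin 3)))
  have heS : ∀ i, e i ∈ S := fun i => by
    rw [Module.Basis.reindex_apply]
    exact Module.Basis.ofSpan_subset hsp (Set.mem_range_self _)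
  choose μ hμ3 hμe using heS
  let M : Matrix (Fin 3) (Fin 3) F := Matrix.of fun i j => e j i
  have hMdet : M.det ≠ 0 := by
    intro h0
    obtain ⟨x, hx, hx0⟩ := Matrix.exists_mulVec_eq_zero_iff.2 h0
    refine hx (funext fun j => Fintype.linearIndependent_iff.1 e.linearIndependent x ?_ j)
    rw [← hx0]
    ext i
    simp [M, mulVec, dotProduct, Finset.sum_apply, mul_comm]
  have hBM : B * M = M * diagonal μ := by
    ext i j
    have := congrFun (hμe j) i
    simp [mulVec, dotProduct] at this
    rw [Matrix.mul_diagonal]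
    simp [M, Matrix.mul_apply]
    rw [this, mul_comm]
  have hprod : μ 0 * μ 1 * μ 2 = 1 := by
    have := congrArg Matrix.det hBM
    rw [det_mul, det_mul, hdetb, det_diagonal, one_mul, Fin.prod_univ_three] at this
    exact mul_left_cancel₀ hMdet (by rw [mul_one]; exact this.symm)
  by_cases heq : μ 0 = μ 1 ∧ μ 0 = μ 2
  · rw [Matrix.SpecialLinearGroup.mem_center_iff]
    refine ⟨μ 0, by simpa using hμ3 0, ?_⟩
    have hd : diagonal μ = scalar (Fin 3) (μ 0) := by
      ext i j; fin_cases i <;> fin_cases j <;> simp [diagonal, ← heq.1, ← heq.2]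
    rw [hd, ← (scalar_commute (μ 0) (Commute.all _) M).eq] at hBM
    have hu : IsUnit M := (Matrix.isUnit_iff_isUnit_det M).2 (isUnit_iff_ne_zero.2 hMdet)
    exact (hu.mul_left_inj.1 hBM).symm
  · exfalso
    have hinj : Function.Injective μ := by
      have h01 : μ 0 ≠ μ 1 := fun e1 => heq ⟨e1, by
        have : μ 2 = μ 0 := by
          have h00 := hμ3 0
          rw [← e1] at hprod
          linear_combination (μ 0) * hprod - μ 2 * h00
        exact this.symm⟩
      have h02 : μ 0 ≠ μ 2 := fun e1 => heq ⟨by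
        have : μ 1 = μ 0 := by
          have h00 := hμ3 0
          rw [← e1] at hprod
          linear_combination (μ 0) * hprod - μ 1 * h00
        exact this.symm, e1⟩
      have h12 : μ 1 ≠ μ 2 := fun e1 => h01 (by
        have h00 := hμ3 1
        rw [← e1] at hprod
        linear_combination (μ 1) * hprod - μ 0 * h00)
      intro i j hij
      fin_cases i <;> fin_cases j <;>
        first
          | rfl
          | exact absurd hij h01
          | exact absurd hij h02
          | exact absurd hij h12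
          | exact absurd hij.symm h01
          | exact absurd hij.symm h02
          | exact absurd hij.symm h12
    set A := (a : Matrix (Fin 3) (Fin 3) F) with hA
    let A' := M⁻¹ * A * M
    have hu : IsUnit M.det := isUnit_iff_ne_zero.2 hMdet
    have hcomm : diagonal μ * A' = A' * diagonal μ := by
      have h1 : diagonal μ = M⁻¹ * B * M := by
        rw [mul_assoc, hBM, ← mul_assoc, nonsing_inv_mul _ hu, one_mul]
      rw [h1]
      simp only [A', mul_assoc, mul_nonsing_inv_cancel_left M _ hu]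
      rw [← mul_assoc B, ← hcm, mul_assoc]
    have hdiag : A' = diagonal A'.diag := by
      ext i j
      by_cases hij : i = j
      · subst hij; simp
      · have := congrFun (congrFun hcomm i) j
        rw [diagonal_mul, mul_diagonal, mul_comm] at this
        simp only [diagonal_apply_ne _ hij]
        by_contra h0
        exact hij (hinj (mul_left_cancel₀ h0 this))
    have h4 : A' ^ 4 = A' := by
      rw [hdiag, diagonal_pow]
      congr 1
      funext i
      exact hF ▸ FiniteField.pow_card (A'.diag i)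
    have hA' : ∀ n, A' ^ n = M⁻¹ * A ^ n * M := by
      intro n
      induction n with
      | zero => simp [nonsing_inv_mul _ hu]
      | succ n ih =>
        rw [pow_succ, ih, pow_succ]
        simp only [A', mul_assoc, mul_nonsing_inv_cancel_left M _ hu]
    have h4A : A ^ 4 = A := by
      rw [hA' 4] at h4
      have hui : IsUnit M⁻¹ := (Matrix.isUnit_iff_isUnit_det _).2 (by simpa using hu)
      exact hui.mul_right_inj.1 (((Matrix.isUnit_iff_isUnit_det M).2 hu).mul_left_inj.1 h4)
    have h4a : a ^ 4 = a := Subtype.ext (by rw [Matrix.SpecialLinearGroup.coe_pow]; exact h4A)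
    have h3 : a ^ 3 = 1 := mul_right_cancel (b := a) (by rw [one_mul, ← pow_succ, h4a])
    have hd1 : orderOf a ∣ Nat.gcd 5 3 :=
      Nat.dvd_gcd (orderOf_dvd_of_pow_eq_one ha) (orderOf_dvd_of_pow_eq_one h3)
    exact ha1 (orderOf_eq_one_iff.1 (Nat.dvd_one.1 hd1))

/-- `PSL₃(4)` has no element of order fifteen. -/
lemma orderOf_ne_fifteen (hF : Fintype.card F = 4) (g : PSL(3, F)) : orderOf g ≠ 15 := by
  intro ho
  obtain ⟨h, rfl⟩ := QuotientGroup.mk_surjective g
  have hne : ∀ n, 0 < n → n < 15 → h ^ n ∉ Subgroup.center SL(3, F) := fun n h0 h15 hm => by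
    have : (h : PSL(3, F)) ^ n = 1 := by
      rw [← QuotientGroup.mk_pow]; exact (QuotientGroup.eq_one_iff _).2 hm
    have := Nat.le_of_dvd h0 (orderOf_dvd_of_pow_eq_one this)
    omega
  have h15 : h ^ 15 ∈ Subgroup.center SL(3, F) := by
    rw [← QuotientGroup.eq_one_iff, QuotientGroup.mk_pow]
    exact ho ▸ pow_orderOf_eq_one _
  refine hne 5 (by norm_num) (by norm_num) (mem_center_of_commute_five hF (a := h ^ 9) ?_ ?_ ?_ ?_)
  · rw [← pow_mul, show 9 * 5 = 15 * 3 by norm_num, pow_mul]
    exact pow_three_of_center h15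
  · intro e
    exact hne 9 (by norm_num) (by norm_num) (by rw [e]; exact one_mem _)
  · rw [← pow_add, ← pow_add]
  · rw [← pow_mul]; exact h15

/-- The involutions of `PSL₃(4)` are conjugate. -/
lemma isConj_of_orderOf_two (hF : Fintype.card F = 4) (x y : PSL(3, F)) (hx : orderOf x = 2)
    (hy : orderOf y = 2) : IsConj x y := by
  have key : ∀ z : PSL(3, F), orderOf z = 2 → IsConj ((std : SL(3, F)) : PSL(3, F)) z := by
    intro z hz
    obtain ⟨g, rfl⟩ := QuotientGroup.mk_surjective z
    have hg2 : g ^ 2 ∈ Subgroup.center SL(3, F) := by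
      rw [← QuotientGroup.eq_one_iff, QuotientGroup.mk_pow]
      exact hz ▸ pow_orderOf_eq_one _
    have e : ((g ^ 3 : SL(3, F)) : PSL(3, F)) = (g : PSL(3, F)) := by
      have h2 : (g : PSL(3, F)) ^ 2 = 1 := hz ▸ pow_orderOf_eq_one _
      rw [QuotientGroup.mk_pow, pow_succ, h2, one_mul]
    have h1 : g ^ 3 ≠ 1 := fun h => by
      rw [h, QuotientGroup.mk_one] at e
      rw [← e, orderOf_one] at hz
      omega
    have hc := isConj_std (two_eq_zero hF) (h := g ^ 3) (by
      rw [← pow_add, show 3 + 3 = 2 * 3 by norm_num, pow_mul]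
      exact pow_three_of_center hg2) h1
    rw [← e]
    exact (QuotientGroup.mk' (Subgroup.center SL(3, F))).map_isConj hc
  exact (key x hx).symm.trans (key y hy)

end Cfsg.Agent.H6.PSL34
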